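import Cfsg.Agent.H739.PQ.E8L.Ker

/-!
# The first kernel with arbitrary words (helper739, for S4612)
-/

set_option autoImplicit false
set_option linter.unusedSectionVars false

namespace Cfsg.Agent.H739.PQ.E8L

open Cfsg Cfsg.Agent.H967.Sph Cfsg.Agent.H996.PQ Cfsg.Agent.H64.Dl.Sph Cfsg.Agent.H996.Eight.Cert
open CoxeterSystem Cfsg.Agent.ChevalleyStructure.CoxeterGeom Cfsg.Agent.Tits.Roots Cfsg.Agent.Tits.Core
  Cfsg.Agent.Tits.Exchange Cfsg.Agent.Nodes.Reps Cfsg.Agent.Nodes.BNOf Cfsg.Agent.Nodes.Bruhat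
  Cfsg.Agent.Nodes.LeviDec

universe u

variable {I W : Type*} {Y : Type u} [Fintype I] [DecidableEq I] [Group W] [Finite W] [Group Y] [Finite Y]
    {M : CoxeterMatrix I} {cs : CoxeterSystem M W} {A : I → I → ℤ} {h : IsCartan M A} {p : ℕ} {T : Subgroup Y}
    {n : I → Y} {X : (I → ℤ) → Subgroup Y} (R : RGD cs h p T n X) (hG : GG cs h T X = ⊤)
    {j : I} {N m : ℕ} (t : Tab A j N m) {j' : I} {N' m' : ℕ} (t' : Tab A j' N' m')

/-- **The first kernel**: pairs of points on two lines. -/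
theorem exists_K0 (q : I → ℕ) (hq : ∀ i, Nat.card (X (sr i)) = q i) {χ : Y → ℂ} {d : ℕ}
    {f : Fin m → ℚ} (H : HasVal R hG t χ d f)
    (hcom : ∀ i, i ≠ j → i ≠ j' → A i j = 0 ∧ A j i = 0)
    {Wt : Fin N → ℚ} (hWt : ∀ s, Wt s = f (t.cls s) + t.tau q j (fun u => f (t.cls u)) s)
    (hW : ∀ i, i ≠ j' → ∀ s, Wt (t.st i s) = Wt s)
    (wd : Fin m' → List I) (hwd : ∀ c, (wd c).foldl (fun b i => t'.st i b) t'.o = t'.crep c)
    (hv : ∀ c, ¬ t'.vec (t'.crep c) j < 0) :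
    ∃ F : Y → ℚ, Iso χ F ∧ ∀ g, F g = (fun c => Wt ((wd c).reverse.foldl (fun b i => t.st i b) t.o) +
      q j * Wt ((j :: (wd c).reverse).foldl (fun b i => t.st i b) t.o)) (t'.cls (stY R hG t' g)) := by
  classical
  have hr := real_of_hasVal R hG t H
  -- the spherical function
  have h0 : Iso χ (fun g => f (t.cls (stY R hG t g))) := iso_of_hasVal R hG t H
  obtain ⟨F0, hF0⟩ : ∃ F0 : Y → ℚ, F0 = fun g => f (t.cls (stY R hG t g)) := ⟨_, rfl⟩
  rw [← hF0] at h0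
  -- the sum over the points of a line
  have h1 : Iso χ (F0 + H967.Sph.opT X n j F0) := h0.add (h0.opT j)
  obtain ⟨Φ, hΦ⟩ : ∃ Φ : Y → ℚ, Φ = F0 + H967.Sph.opT X n j F0 := ⟨_, rfl⟩
  rw [← hΦ] at h1
  have hΦ' : ∀ g, Φ g = Wt (stY R hG t g) := by
    intro g
    rw [hWt, hΦ, Pi.add_apply]
    have h2 := congrFun (opT_stY R hG t q hq j (fun s => f (t.cls s))) g
    rw [← hF0] at h2
    rw [h2]
    congr 1
    exact congrFun hF0 g
  have hΦl : ∀ y ∈ PJ cs h T X {i | i ≠ j}, ∀ g, Φ (y * g) = Φ g := fun y hy g => by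
    rw [hΦ', hΦ', stY_mul_left R hG t hy]
  have hΦr : ∀ y ∈ PJ cs h T X {i | i ≠ j'}, ∀ g, Φ (g * y) = Φ g := fun y hy g => by
    rw [hΦ', hΦ']
    exact mul_right_of_st R hG t (φ := Wt) (fun i hi s => hW i hi s) hy g
  -- the inverse
  have h3 : Iso χ (fun g => Φ g⁻¹) := h1.inv hr
  obtain ⟨Ψ, hΨ⟩ : ∃ Ψ : Y → ℚ, Ψ = fun g => Φ g⁻¹ := ⟨_, rfl⟩
  rw [← hΨ] at h3
  have hΨl : ∀ y ∈ PJ cs h T X {i | i ≠ j'}, ∀ g, Ψ (y * g) = Ψ g := fun y hy g => by
    rw [hΨ]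
    show Φ (y * g)⁻¹ = Φ g⁻¹
    rw [mul_inv_rev, hΦr _ (inv_mem hy)]
  have hΨr : ∀ y ∈ PJ cs h T X {i | i ≠ j}, ∀ g, Ψ (g * y) = Ψ g := fun y hy g => by
    rw [hΨ]
    show Φ (g * y)⁻¹ = Φ g⁻¹
    rw [mul_inv_rev, hΦl _ (inv_mem hy)]
  obtain ⟨ψ, hψ1, hψ2⟩ := exists_state_fun R hG t' Ψ hΨl (fun y hy g => hΨr y (B_le_PJ hy) g)
  have hψi : ∀ i, i ≠ j → ∀ s, ψ (t'.st i s) = ψ s := by
    intro i hi s
    refine st_eq_of_right R hG t' hψ2 (fun g => ?_) s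
    exact hΨr _ (LJ_le_PJ (rp_mem_LJ R (simple_mem_WJ cs (J := {i | i ≠ j}) hi) (rp_simple cs R.nsys i))) g
  have hψP : ∀ w : List I, ψ (w.foldl (fun b i => t'.st i b) t'.o) = Wt (w.reverse.foldl (fun b i => t.st i b) t.o) := by
    intro w
    obtain ⟨k, hk⟩ := exists_rp cs R.nsys (cs.wordProd w)
    have h4 : t'.sw cs h (cs.wordProd w) = w.foldl (fun b i => t'.st i b) t'.o := by
      rw [← one_mul (cs.wordProd _), t'.sw_wordProd, t'.sw_one]
    have h5 : t.sw cs h (cs.wordProd w)⁻¹ = w.reverse.foldl (fun b i => t.st i b) t.o := by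
      rw [← cs.wordProd_reverse, ← one_mul (cs.wordProd _), t.sw_wordProd, t.sw_one]
    rw [← h4, hψ2 _ k hk, hΨ]
    show Φ k⁻¹ = _
    rw [hΦ', stY_eq R hG t (cell_of_rp hk.inv), h5]
  -- the kernel
  refine ⟨Ψ + H967.Sph.opT X n j Ψ, h3.add (h3.opT j), fun g => ?_⟩
  have h4 : (Ψ + H967.Sph.opT X n j Ψ) g = (fun s => ψ s + t'.tau q j ψ s) (stY R hG t' g) := by
    rw [Pi.add_apply]
    have h5 := congrFun (opT_stY R hG t' q hq j ψ) g
    have h6 : Ψ = fun g => ψ (stY R hG t' g) := funext hψ1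
    rw [← h6] at h5
    rw [h5, hψ1 g]
  rw [h4]
  have h5 : ∀ i, i ≠ j' → ∀ s, (fun s => ψ s + t'.tau q j ψ s) (t'.st i s) = (fun s => ψ s + t'.tau q j ψ s) s := by
    intro i hi s
    beta_reduce
    by_cases hij : i = j
    · subst hij
      have h6 := t'.vec_st_self cs h i s
      rcases lt_trichotomy (t'.vec s i) 0 with h7 | h7 | h7
      · have h8 : ¬ t'.vec (t'.st i s) i < 0 := by omega
        unfold Tab.tau
        rw [if_neg h8, if_pos h7, t'.st_st cs h]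
        ring
      · rw [t'.st_eq_of_zero cs h h7]
      · have h8 : t'.vec (t'.st i s) i < 0 := by omega
        have h9 : ¬ t'.vec s i < 0 := by omega
        unfold Tab.tau
        rw [if_pos h8, if_neg h9, t'.st_st cs h]
        ring
    · obtain ⟨h6, h7⟩ := hcom i hij hi
      have h8 : t'.vec (t'.st i s) j = t'.vec s j := by rw [t'.vec_st, h6, zero_mul, sub_zero]
      have h9 : t'.st j (t'.st i s) = t'.st i (t'.st j s) := by
        apply t'.vec_inj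
        funext k
        rw [t'.vec_st, t'.vec_st, t'.vec_st, t'.vec_st, t'.vec_st, t'.vec_st, h6, h7]
        ring
      unfold Tab.tau
      rw [h8, h9, hψi i hij, hψi i hij]
  refine (eq_crep t' (φ := fun s => ψ s + t'.tau q j ψ s) h5 (stY R hG t' g)).trans ?_
  generalize t'.cls (stY R hG t' g) = c
  beta_reduce
  have h6 : ψ (t'.crep c) = Wt ((wd c).reverse.foldl (fun b i => t.st i b) t.o) := by rw [← hwd, hψP]
  have h7 : ψ (t'.st j (t'.crep c)) = Wt ((j :: (wd c).reverse).foldl (fun b i => t.st i b) t.o) := by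
    have h8 := hψP (wd c ++ [j])
    rw [List.foldl_append, List.foldl_cons, List.foldl_nil, hwd, List.reverse_append, List.reverse_singleton,
      List.singleton_append] at h8
    exact h8
  unfold Tab.tau
  rw [if_neg (hv c), h6, h7]

end Cfsg.Agent.H739.PQ.E8L
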