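import Cfsg.Agent.H739.PQ.E8L.Iso
import Cfsg.Agent.H739.PQ.E8L.Fun
import Cfsg.Agent.H996.Eight.Cert

/-!
# The transferred kernel (helper739, for S4612)

A constituent `χ` of the permutation character on the points (node `j`), a second node `j'` adjacent to `j` such that all
other nodes commute with `j`. `exists_kernel`: an isotypic function on the group, bi-invariant under the parabolic
subgroup of the nodes `≠ j'`, with explicit values.
-/

set_option autoImplicit false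
set_option linter.unusedSectionVars false

namespace Cfsg.Agent.H739.PQ.E8L

open Cfsg Cfsg.Agent.H967.Sph Cfsg.Agent.H996.PQ Cfsg.Agent.H64.Dl.Sph Cfsg.Agent.H996.Eight.Cert
open CoxeterSystem Cfsg.Agent.ChevalleyStructure.CoxeterGeom Cfsg.Agent.Tits.Roots Cfsg.Agent.Tits.Core
  Cfsg.Agent.Tits.Exchange Cfsg.Agent.Nodes.Reps Cfsg.Agent.Nodes.BNOf Cfsg.Agent.Nodes.Bruhat
  Cfsg.Agent.Nodes.LeviDec

universe u

section Table

variable {I : Type*} [DecidableEq I] {A : I → I → ℤ} {j : I} {N m : ℕ} (t : Tab A j N m)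

/-- the polynomial of the function `f + T_j f`, `f` a function of the state -/
def oneT (e : I → ℕ) (j' : I) (f : Fin N → List ℤ) (s : Fin N) : List ℤ :=
  pAdd (f s) (if t.vec s j' < 0 then pAdd (f (t.st j' s)) (pAdd (pShift (e j') (f s)) (pNeg (f s)))
    else pShift (e j') (f (t.st j' s)))

theorem ev_oneT (x : ℕ) (e : I → ℕ) (j' : I) (f : Fin N → List ℤ) (s : Fin N) :
    ev (x : ℚ) (oneT t e j' f s) = ev x (f s) + t.tau (fun i => x ^ e i) j' (fun u => ev x (f u)) s := by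
  unfold oneT Tab.tau
  rw [ev_pAdd]
  congr 1
  split_ifs with h
  · rw [ev_pAdd, ev_pAdd, ev_pShift, ev_pNeg]
    push_cast
    ring
  · rw [ev_pShift]
    push_cast
    ring

/-- the state of the inverse word -/
def invSt {N' m' : ℕ} {j' : I} (t' : Tab A j' N' m') (s : Fin N') : Fin N :=
  (t'.path s).reverse.foldl (fun b i => t.st i b) t.o

/-- the class of the inverse -/
def starC (c : Fin m) : Fin m := t.cls (invSt t t (t.crep c))

end Table

section Group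

variable {I W : Type*} {Y : Type u} [Fintype I] [DecidableEq I] [Group W] [Finite W] [Group Y] [Finite Y]
    {M : CoxeterMatrix I} {cs : CoxeterSystem M W} {A : I → I → ℤ} {h : IsCartan M A} {p : ℕ} {T : Subgroup Y}
    {n : I → Y} {X : (I → ℤ) → Subgroup Y} (R : RGD cs h p T n X) (hG : GG cs h T X = ⊤)
    {j : I} {N m : ℕ} (t : Tab A j N m) {j' : I} {N' m' : ℕ} (t' : Tab A j' N' m')

theorem sw_inv_path (s : Fin N') : ∃ w : W, t'.sw cs h w = s ∧ t.sw cs h w⁻¹ = invSt t t' s := by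
  refine ⟨cs.wordProd (t'.path s), ?_, ?_⟩
  · rw [← one_mul (cs.wordProd _), t'.sw_wordProd, t'.sw_one, t'.path_spec]
  · rw [← cs.wordProd_reverse, ← one_mul (cs.wordProd _), t.sw_wordProd, t.sw_one]
    rfl

/-- a function on the states which is constant under the reflections `≠ j` is determined by its values at the
representatives -/
theorem eq_crep {α : Type*} {φ : Fin N → α} (hφ : ∀ i, i ≠ j → ∀ s, φ (t.st i s) = φ s) (s : Fin N) :
    φ s = φ (t.crep (t.cls s)) := by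
  have key : ∀ (l : List I), (∀ i ∈ l, i ≠ j) → ∀ s, φ (l.foldl (fun b i => t.st i b) s) = φ s := by
    intro l
    induction l with
    | nil => intro _ s; rfl
    | cons i l ih =>
      intro hl s
      rw [List.foldl_cons, ih (fun k hk => hl k (List.mem_cons_of_mem _ hk)), hφ i (hl i (by simp))]
  have h1 := key (t.cpath s) (t.cpath_ne s) (t.crep (t.cls s))
  rwa [t.cpath_spec] at h1

/-- **One step**: the operator of the node `j` minus a scalar. -/
theorem iso_step (D : Data A j N m) {x : ℕ} (hq : ∀ i, Nat.card (X (sr i)) = x ^ D.e i) (hx : 2 ≤ x) {χ : Y → ℂ}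
    {F : Y → ℚ} (hF : Iso χ F) {b : Fin m → ℚ} (hb : ∀ g, F g = b (D.t.cls (stY R hG D.t g))) (θ : ℚ) :
    ∃ F' : Y → ℚ, Iso χ F' ∧ ∀ g, F' g = (fun c => ∑ c', ev x (D.bb c c') * b c' - θ * b c)
      (D.t.cls (stY R hG D.t g)) := by
  classical
  have := Fintype.ofFinite Y
  have := Fintype.ofFinite (PJ cs h T X {i | i ≠ j})
  have hx' : (2 : ℚ) ≤ (x : ℚ) := by exact_mod_cast hx
  have hP : (Fintype.card (PJ cs h T X {i | i ≠ j}) : ℚ) ≠ 0 := Nat.cast_ne_zero.2 Fintype.card_ne_zero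
  have h1 : Iso χ (fun g => ∑ z : PJ cs h T X {i | i ≠ j}, H967.Sph.opT X n j F (g * z)) := (hF.opT j).avg _
  have h2 := (h1.smul (ev x D.ff / Fintype.card (PJ cs h T X {i | i ≠ j}))).add (hF.smul (-θ))
  refine ⟨_, h2, fun g => ?_⟩
  rw [Pi.add_apply, Pi.smul_apply, Pi.smul_apply, smul_eq_mul, smul_eq_mul, hb g]
  have h3 : F = fun g => (fun u => b (D.t.cls u)) (stY R hG D.t g) := funext hb
  have hws : ∀ i s, 0 < D.t.vec s i → x ^ D.wl (D.t.st i s) = x ^ D.e i * x ^ D.wl s := by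
    intro i s h9
    rw [D.ws i s h9, pow_add]
  have hwo : x ^ D.wl D.t.o = 1 := by rw [D.wo, pow_zero]
  have h4 := H996.Eight.Av.sum_P R hG D.t (fun i => x ^ D.e i) hq (fun s => x ^ D.wl s) hwo hws
    (D.t.tau (fun i => x ^ D.e i) j (fun u => b (D.t.cls u))) g
  have h5 : ∀ z : PJ cs h T X {i | i ≠ j}, H967.Sph.opT X n j F (g * z) =
      D.t.tau (fun i => x ^ D.e i) j (fun u => b (D.t.cls u)) (stY R hG D.t (g * z)) := by
    intro z
    rw [h3, opT_stY R hG D.t (fun i => x ^ D.e i) hq j (fun u => b (D.t.cls u))]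
  rw [Finset.sum_congr rfl fun z _ => h5 z]
  obtain ⟨c, hc⟩ : ∃ c, c = D.t.cls (stY R hG D.t g) := ⟨_, rfl⟩
  rw [← hc] at h4 ⊢
  have h6 : ∑ s, (if D.t.cls s = c then ((x ^ D.wl s : ℕ) : ℚ) else 0) = ev x (D.kk c) := by
    rw [← ChkK.spec (x : ℚ) D.chkK c, Finset.sum_filter]
    refine Finset.sum_congr rfl fun s _ => ?_
    split_ifs
    · push_cast
      rfl
    · rfl
  have h7 := D.chkM.spec x b c
  rw [h7, h6] at h4
  have h8 := ev_pos hx' (D.chkP c)
  have h9 : ev (x : ℚ) (D.kk c) * ∑ c', ev (x : ℚ) (D.bb c c') * b c' =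
      ev (x : ℚ) D.ff * ∑ c', ev (x : ℚ) (D.mat c c') * b c' := by
    rw [Finset.mul_sum, Finset.mul_sum]
    refine Finset.sum_congr rfl fun c' _ => ?_
    have h10 := ev_of_pEq (x : ℚ) (D.chkB c c')
    rw [ev_pMul, ev_pMul] at h10
    rw [← mul_assoc, h10, mul_assoc]
  obtain ⟨S, hS⟩ : ∃ S, S = ∑ z : PJ cs h T X {i | i ≠ j},
    D.t.tau (fun i => x ^ D.e i) j (fun u => b (D.t.cls u)) (stY R hG D.t (g * z)) := ⟨_, rfl⟩
  rw [← hS] at h4 ⊢
  have h11 : ev (x : ℚ) D.ff / Fintype.card (PJ cs h T X {i | i ≠ j}) * S =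
      ∑ c', ev (x : ℚ) (D.bb c c') * b c' := by
    refine mul_left_cancel₀ h8.ne' ?_
    rw [h9, div_mul_eq_mul_div, mul_div_assoc', div_eq_iff hP]
    linear_combination (ev (x : ℚ) D.ff) * h4
  rw [h11]
  ring

/-- **The inverse.** -/
theorem iso_flip {χ : Y → ℂ} (hr : ∀ g, χ g⁻¹ = χ g) {F : Y → ℚ} (hF : Iso χ F) {b : Fin m → ℚ}
    (hb : ∀ g, F g = b (t.cls (stY R hG t g))) :
    ∃ F' : Y → ℚ, Iso χ F' ∧ ∀ g, F' g = (fun c => b (starC t c)) (t.cls (stY R hG t g)) := by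
  classical
  have h1 : ∀ y ∈ PJ cs h T X {i | i ≠ j}, ∀ g, F (g * y)⁻¹ = F g⁻¹ := by
    intro y hy g
    rw [mul_inv_rev, hb, hb, stY_mul_left R hG t (inv_mem hy)]
  have h2 : ∀ y ∈ PJ cs h T X {i | i ≠ j}, ∀ g, F (y * g)⁻¹ = F g⁻¹ := by
    intro y hy g
    rw [mul_inv_rev, hb, hb, cls_mul_right R hG t (inv_mem hy)]
  obtain ⟨ψ, hψ1, hψ2⟩ := exists_state_fun R hG t (fun g => F g⁻¹) h2 (fun y hy g => h1 y (B_le_PJ hy) g)
  have h3 : ∀ i, i ≠ j → ∀ s, ψ (t.st i s) = ψ s := by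
    intro i hi s
    refine st_eq_of_right R hG t hψ2 (fun g => ?_) s
    exact h1 _ (LJ_le_PJ (rp_mem_LJ R (simple_mem_WJ cs (J := {i | i ≠ j}) hi) (rp_simple cs R.nsys i))) g
  refine ⟨_, hF.inv hr, fun g => ?_⟩
  show F g⁻¹ = b (starC t (t.cls (stY R hG t g)))
  have h4 : F g⁻¹ = ψ (stY R hG t g) := hψ1 g
  rw [h4, eq_crep t h3]
  generalize t.cls (stY R hG t g) = c
  obtain ⟨w, hw1, hw2⟩ := sw_inv_path (cs := cs) (h := h) t t (t.crep c)
  obtain ⟨k, hk⟩ := exists_rp cs R.nsys w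
  rw [← hw1, hψ2 w k hk]
  show F k⁻¹ = _
  rw [hb, stY_eq R hG t (cell_of_rp hk.inv), hw2]
  rfl

/-- the polynomials of the first kernel -/
def psiP {A : I → I → ℤ} {j j' : I} {N m N' m' : ℕ} (t : Tab A j N m) (t' : Tab A j' N' m') (e : I → ℕ)
    (nu : Fin m → List ℤ) (s : Fin N') : List ℤ :=
  oneT t e j (fun u => nu (t.cls u)) (invSt t t' s)

/-- the polynomials of the first kernel -/
def k0P {A : I → I → ℤ} {j j' : I} {N m N' m' : ℕ} (t : Tab A j N m) (t' : Tab A j' N' m') (e : I → ℕ)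
    (nu : Fin m → List ℤ) (c : Fin m') : List ℤ :=
  oneT t' e j (psiP t t' e nu) (t'.crep c)

/-- **The first kernel**: pairs of points on two lines. -/
theorem exists_kernel {x : ℕ} {e : I → ℕ} (hq : ∀ i, Nat.card (X (sr i)) = x ^ e i) {χ : Y → ℂ} {d : ℕ}
    {a : Fin m → ℚ} (H : HasVal R hG t χ d a) {nu : Fin m → List ℤ} {c0 : ℚ} (hnu : ∀ c, ev x (nu c) = c0 * a c)
    (hcom : ∀ i, i ≠ j → i ≠ j' → A i j = 0 ∧ A j i = 0)
    (hW : ∀ i, i ≠ j' → ∀ s, pEq (oneT t e j (fun u => nu (t.cls u)) (t.st i s))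
      (oneT t e j (fun u => nu (t.cls u)) s) = true) :
    ∃ F : Y → ℚ, Iso χ F ∧ ∀ g, F g = ev x (k0P t t' e nu (t'.cls (stY R hG t' g))) := by
  classical
  have hr := real_of_hasVal R hG t H
  -- the spherical function
  have h0 : Iso χ (c0 • fun g => a (t.cls (stY R hG t g))) := (iso_of_hasVal R hG t H).smul c0
  obtain ⟨F0, hF0⟩ : ∃ F0 : Y → ℚ, F0 = c0 • fun g => a (t.cls (stY R hG t g)) := ⟨_, rfl⟩
  rw [← hF0] at h0
  have hF0' : F0 = fun g => (fun s => ev (x : ℚ) (nu (t.cls s))) (stY R hG t g) := by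
    rw [hF0]
    funext g
    rw [Pi.smul_apply, smul_eq_mul]
    exact (hnu _).symm
  -- the sum over the points of a line
  have h1 : Iso χ (F0 + H967.Sph.opT X n j F0) := h0.add (h0.opT j)
  obtain ⟨Φ, hΦ⟩ : ∃ Φ : Y → ℚ, Φ = F0 + H967.Sph.opT X n j F0 := ⟨_, rfl⟩
  rw [← hΦ] at h1
  have hΦ' : ∀ g, Φ g = ev (x : ℚ) (oneT t e j (fun u => nu (t.cls u)) (stY R hG t g)) := by
    intro g
    rw [ev_oneT, hΦ, Pi.add_apply]
    have h2 := congrFun (opT_stY R hG t (fun i => x ^ e i) hq j (fun s => ev (x : ℚ) (nu (t.cls s)))) g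
    rw [← hF0'] at h2
    rw [h2]
    congr 1
    exact congrFun hF0' g
  have hΦl : ∀ y ∈ PJ cs h T X {i | i ≠ j}, ∀ g, Φ (y * g) = Φ g := fun y hy g => by
    rw [hΦ', hΦ', stY_mul_left R hG t hy]
  have hΦr : ∀ y ∈ PJ cs h T X {i | i ≠ j'}, ∀ g, Φ (g * y) = Φ g := fun y hy g => by
    rw [hΦ', hΦ']
    exact mul_right_of_st R hG t (φ := fun s => ev (x : ℚ) (oneT t e j (fun u => nu (t.cls u)) s))
      (fun i hi s => ev_of_pEq (x : ℚ) (hW i hi s)) hy g
  -- the inverse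
  have h3 : Iso χ (fun g => Φ g⁻¹) := h1.inv hr
  obtain ⟨Ψ, hΨ⟩ : ∃ Ψ : Y → ℚ, Ψ = fun g => Φ g⁻¹ := ⟨_, rfl⟩
  rw [← hΨ] at h3
  have hΨl : ∀ y ∈ PJ cs h T X {i | i ≠ j'}, ∀ g, Ψ (y * g) = Ψ g := fun y hy g => by
    rw [hΨ]
    show Φ (y * g)⁻¹ = Φ g⁻¹
    rw [mul_inv_rev, hΦr _ (inv_mem hy)]
  have hΨr : ∀ y ∈ PJ cs h T X {i | i ≠ j}, ∀ g, Ψ (g * y) = Ψ g := fun y hy g => by
    rw [hΨ]
    show Φ (g * y)⁻¹ = Φ g⁻¹
    rw [mul_inv_rev, hΦl _ (inv_mem hy)]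
  obtain ⟨ψ, hψ1, hψ2⟩ := exists_state_fun R hG t' Ψ hΨl (fun y hy g => hΨr y (B_le_PJ hy) g)
  have hψi : ∀ i, i ≠ j → ∀ s, ψ (t'.st i s) = ψ s := by
    intro i hi s
    refine st_eq_of_right R hG t' hψ2 (fun g => ?_) s
    exact hΨr _ (LJ_le_PJ (rp_mem_LJ R (simple_mem_WJ cs (J := {i | i ≠ j}) hi) (rp_simple cs R.nsys i))) g
  have hψP : ∀ s, ψ s = ev (x : ℚ) (psiP t t' e nu s) := by
    intro s
    obtain ⟨w, hw1, hw2⟩ := sw_inv_path (cs := cs) (h := h) t t' s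
    obtain ⟨k, hk⟩ := exists_rp cs R.nsys w
    rw [← hw1, hψ2 w k hk, hΨ]
    show Φ k⁻¹ = _
    rw [hΦ', stY_eq R hG t (cell_of_rp hk.inv), hw2, hw1]
    rfl
  -- the kernel
  refine ⟨Ψ + H967.Sph.opT X n j Ψ, h3.add (h3.opT j), fun g => ?_⟩
  have hκ : ∀ s, ev (x : ℚ) (oneT t' e j (psiP t t' e nu) s) = ψ s + t'.tau (fun i => x ^ e i) j ψ s := by
    intro s
    rw [ev_oneT, ← hψP]
    congr 2
    funext u
    exact (hψP u).symm
  have h4 : (Ψ + H967.Sph.opT X n j Ψ) g = ev (x : ℚ) (oneT t' e j (psiP t t' e nu) (stY R hG t' g)) := by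
    rw [hκ, Pi.add_apply]
    have h5 := congrFun (opT_stY R hG t' (fun i => x ^ e i) hq j ψ) g
    have h6 : Ψ = fun g => ψ (stY R hG t' g) := funext hψ1
    rw [← h6] at h5
    rw [h5]
    congr 1
    exact hψ1 g
  rw [h4]
  have h5 : ∀ i, i ≠ j' → ∀ s, ev (x : ℚ) (oneT t' e j (psiP t t' e nu) (t'.st i s)) =
      ev (x : ℚ) (oneT t' e j (psiP t t' e nu) s) := by
    intro i hi s
    rw [hκ, hκ]
    by_cases hij : i = j
    · subst hij
      have h6 := t'.vec_st_self cs h i s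
      rcases lt_trichotomy (t'.vec s i) 0 with h7 | h7 | h7
      · have h8 : ¬ t'.vec (t'.st i s) i < 0 := by omega
        unfold Tab.tau
        rw [if_neg h8, if_pos h7, t'.st_st cs h]
        ring
      · rw [t'.st_eq_of_zero cs h h7]
      · have h8 : t'.vec (t'.st i s) i < 0 := by omega
        have h9 : ¬ t'.vec s i < 0 := by omega
        unfold Tab.tau
        rw [if_pos h8, if_neg h9, t'.st_st cs h]
        ring
    · obtain ⟨h6, h7⟩ := hcom i hij hi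
      have h8 : t'.vec (t'.st i s) j = t'.vec s j := by rw [t'.vec_st, h6, zero_mul, sub_zero]
      have h9 : t'.st j (t'.st i s) = t'.st i (t'.st j s) := by
        apply t'.vec_inj
        funext k
        rw [t'.vec_st, t'.vec_st, t'.vec_st, t'.vec_st, t'.vec_st, t'.vec_st, h6, h7]
        ring
      unfold Tab.tau
      rw [h8, h9, hψi i hij, hψi i hij]
  exact eq_crep t' (φ := fun s => ev (x : ℚ) (oneT t' e j (psiP t t' e nu) s)) h5 _

end Group

end Cfsg.Agent.H739.PQ.E8L
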